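import Cfsg.Agent.Lib.Helper11.ONa.Top

set_option autoImplicit false
set_option maxRecDepth 100000

namespace Cfsg.Agent.Lib.Helper11.ONa

set_option maxHeartbeats 0
theorem b80 : allR (guardB 5725 (blk fc sc rt.get INV isH)) 6 5120 = true := by decide +kernel
theorem b81 : allR (guardB 5725 (blk fc sc rt.get INV isH)) 6 5184 = true := by decide +kernel
theorem b82 : allR (guardB 5725 (blk fc sc rt.get INV isH)) 6 5248 = true := by decide +kernel
theorem b83 : allR (guardB 5725 (blk fc sc rt.get INV isH)) 6 5312 = true := by decide +kernel
theorem b84 : allR (guardB 5725 (blk fc sc rt.get INV isH)) 6 5376 = true := by decide +kernel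
theorem b85 : allR (guardB 5725 (blk fc sc rt.get INV isH)) 6 5440 = true := by decide +kernel
theorem b86 : allR (guardB 5725 (blk fc sc rt.get INV isH)) 6 5504 = true := by decide +kernel
theorem b87 : allR (guardB 5725 (blk fc sc rt.get INV isH)) 6 5568 = true := by decide +kernel

end Cfsg.Agent.Lib.Helper11.ONa
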