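import Cfsg.Agent.Lib.Helper11.ONa.Top

set_option autoImplicit false
set_option maxRecDepth 100000

namespace Cfsg.Agent.Lib.Helper11.ONa

set_option maxHeartbeats 0
theorem b88 : allR (guardB 5725 (blk fc sc rt.get INV isH)) 6 5632 = true := by decide +kernel
theorem b89 : allR (guardB 5725 (blk fc sc rt.get INV isH)) 6 5696 = true := by decide +kernel
theorem b90 : allR (guardB 5725 (blk fc sc rt.get INV isH)) 6 5760 = true := by decide +kernel
theorem b91 : allR (guardB 5725 (blk fc sc rt.get INV isH)) 6 5824 = true := by decide +kernel
theorem b92 : allR (guardB 5725 (blk fc sc rt.get INV isH)) 6 5888 = true := by decide +kernel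
theorem b93 : allR (guardB 5725 (blk fc sc rt.get INV isH)) 6 5952 = true := by decide +kernel
theorem b94 : allR (guardB 5725 (blk fc sc rt.get INV isH)) 6 6016 = true := by decide +kernel
theorem b95 : allR (guardB 5725 (blk fc sc rt.get INV isH)) 6 6080 = true := by decide +kernel

end Cfsg.Agent.Lib.Helper11.ONa
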