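import Cfsg.Agent.Lib.Helper11.ONa.Top

set_option autoImplicit false
set_option maxRecDepth 100000

namespace Cfsg.Agent.Lib.Helper11.ONa

set_option maxHeartbeats 0
theorem b96 : allR (guardB 5725 (blk fc sc rt.get INV isH)) 6 6144 = true := by decide +kernel
theorem b97 : allR (guardB 5725 (blk fc sc rt.get INV isH)) 6 6208 = true := by decide +kernel
theorem b98 : allR (guardB 5725 (blk fc sc rt.get INV isH)) 6 6272 = true := by decide +kernel
theorem b99 : allR (guardB 5725 (blk fc sc rt.get INV isH)) 6 6336 = true := by decide +kernel
theorem b100 : allR (guardB 5725 (blk fc sc rt.get INV isH)) 6 6400 = true := by decide +kernel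
theorem b101 : allR (guardB 5725 (blk fc sc rt.get INV isH)) 6 6464 = true := by decide +kernel
theorem b102 : allR (guardB 5725 (blk fc sc rt.get INV isH)) 6 6528 = true := by decide +kernel
theorem b103 : allR (guardB 5725 (blk fc sc rt.get INV isH)) 6 6592 = true := by decide +kernel

end Cfsg.Agent.Lib.Helper11.ONa
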