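import Cfsg.Agent.Lib.Helper11.ONa.Top

set_option autoImplicit false
set_option maxRecDepth 100000

namespace Cfsg.Agent.Lib.Helper11.ONa

set_option maxHeartbeats 0
theorem c8 : allR (guardB 3837 (cblk fc nc cc 1465600 122760 139984046386112763159840142535527767382602843577165595931249318810236991948760059086304843329475444736 gens)) 7 1024 = true := by decide +kernel
theorem c9 : allR (guardB 3837 (cblk fc nc cc 1465600 122760 139984046386112763159840142535527767382602843577165595931249318810236991948760059086304843329475444736 gens)) 7 1152 = true := by decide +kernel
theorem c10 : allR (guardB 3837 (cblk fc nc cc 1465600 122760 139984046386112763159840142535527767382602843577165595931249318810236991948760059086304843329475444736 gens)) 7 1280 = true := by decide +kernel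
theorem c11 : allR (guardB 3837 (cblk fc nc cc 1465600 122760 139984046386112763159840142535527767382602843577165595931249318810236991948760059086304843329475444736 gens)) 7 1408 = true := by decide +kernel
theorem c12 : allR (guardB 3837 (cblk fc nc cc 1465600 122760 139984046386112763159840142535527767382602843577165595931249318810236991948760059086304843329475444736 gens)) 7 1536 = true := by decide +kernel
theorem c13 : allR (guardB 3837 (cblk fc nc cc 1465600 122760 139984046386112763159840142535527767382602843577165595931249318810236991948760059086304843329475444736 gens)) 7 1664 = true := by decide +kernel
theorem c14 : allR (guardB 3837 (cblk fc nc cc 1465600 122760 139984046386112763159840142535527767382602843577165595931249318810236991948760059086304843329475444736 gens)) 7 1792 = true := by decide +kernel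
theorem c15 : allR (guardB 3837 (cblk fc nc cc 1465600 122760 139984046386112763159840142535527767382602843577165595931249318810236991948760059086304843329475444736 gens)) 7 1920 = true := by decide +kernel

end Cfsg.Agent.Lib.Helper11.ONa
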