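import Cfsg.Agent.Lib.Helper11.ONa.Top

set_option autoImplicit false
set_option maxRecDepth 100000

namespace Cfsg.Agent.Lib.Helper11.ONa

set_option maxHeartbeats 0
theorem c16 : allR (guardB 3837 (cblk fc nc cc 1465600 122760 139984046386112763159840142535527767382602843577165595931249318810236991948760059086304843329475444736 gens)) 7 2048 = true := by decide +kernel
theorem c17 : allR (guardB 3837 (cblk fc nc cc 1465600 122760 139984046386112763159840142535527767382602843577165595931249318810236991948760059086304843329475444736 gens)) 7 2176 = true := by decide +kernel
theorem c18 : allR (guardB 3837 (cblk fc nc cc 1465600 122760 139984046386112763159840142535527767382602843577165595931249318810236991948760059086304843329475444736 gens)) 7 2304 = true := by decide +kernel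
theorem c19 : allR (guardB 3837 (cblk fc nc cc 1465600 122760 139984046386112763159840142535527767382602843577165595931249318810236991948760059086304843329475444736 gens)) 7 2432 = true := by decide +kernel
theorem c20 : allR (guardB 3837 (cblk fc nc cc 1465600 122760 139984046386112763159840142535527767382602843577165595931249318810236991948760059086304843329475444736 gens)) 7 2560 = true := by decide +kernel
theorem c21 : allR (guardB 3837 (cblk fc nc cc 1465600 122760 139984046386112763159840142535527767382602843577165595931249318810236991948760059086304843329475444736 gens)) 7 2688 = true := by decide +kernel
theorem c22 : allR (guardB 3837 (cblk fc nc cc 1465600 122760 139984046386112763159840142535527767382602843577165595931249318810236991948760059086304843329475444736 gens)) 7 2816 = true := by decide +kernel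
theorem c23 : allR (guardB 3837 (cblk fc nc cc 1465600 122760 139984046386112763159840142535527767382602843577165595931249318810236991948760059086304843329475444736 gens)) 7 2944 = true := by decide +kernel

end Cfsg.Agent.Lib.Helper11.ONa
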