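import Cfsg.Agent.Lib.Helper11.ONa.Top

set_option autoImplicit false
set_option maxRecDepth 100000

namespace Cfsg.Agent.Lib.Helper11.ONa

set_option maxHeartbeats 0
theorem b40 : allR (guardB 5725 (blk fc sc rt.get INV isH)) 6 2560 = true := by decide +kernel
theorem b41 : allR (guardB 5725 (blk fc sc rt.get INV isH)) 6 2624 = true := by decide +kernel
theorem b42 : allR (guardB 5725 (blk fc sc rt.get INV isH)) 6 2688 = true := by decide +kernel
theorem b43 : allR (guardB 5725 (blk fc sc rt.get INV isH)) 6 2752 = true := by decide +kernel
theorem b44 : allR (guardB 5725 (blk fc sc rt.get INV isH)) 6 2816 = true := by decide +kernel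
theorem b45 : allR (guardB 5725 (blk fc sc rt.get INV isH)) 6 2880 = true := by decide +kernel
theorem b46 : allR (guardB 5725 (blk fc sc rt.get INV isH)) 6 2944 = true := by decide +kernel
theorem b47 : allR (guardB 5725 (blk fc sc rt.get INV isH)) 6 3008 = true := by decide +kernel

end Cfsg.Agent.Lib.Helper11.ONa
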