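import Cfsg.Agent.Lib.Helper11.ONa.Top

set_option autoImplicit false
set_option maxRecDepth 100000

namespace Cfsg.Agent.Lib.Helper11.ONa

set_option maxHeartbeats 0
theorem b48 : allR (guardB 5725 (blk fc sc rt.get INV isH)) 6 3072 = true := by decide +kernel
theorem b49 : allR (guardB 5725 (blk fc sc rt.get INV isH)) 6 3136 = true := by decide +kernel
theorem b50 : allR (guardB 5725 (blk fc sc rt.get INV isH)) 6 3200 = true := by decide +kernel
theorem b51 : allR (guardB 5725 (blk fc sc rt.get INV isH)) 6 3264 = true := by decide +kernel
theorem b52 : allR (guardB 5725 (blk fc sc rt.get INV isH)) 6 3328 = true := by decide +kernel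
theorem b53 : allR (guardB 5725 (blk fc sc rt.get INV isH)) 6 3392 = true := by decide +kernel
theorem b54 : allR (guardB 5725 (blk fc sc rt.get INV isH)) 6 3456 = true := by decide +kernel
theorem b55 : allR (guardB 5725 (blk fc sc rt.get INV isH)) 6 3520 = true := by decide +kernel

end Cfsg.Agent.Lib.Helper11.ONa
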