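import Cfsg.Agent.Lib.Helper11.ONa.Top

set_option autoImplicit false
set_option maxRecDepth 100000

namespace Cfsg.Agent.Lib.Helper11.ONa

set_option maxHeartbeats 0
theorem b56 : allR (guardB 5725 (blk fc sc rt.get INV isH)) 6 3584 = true := by decide +kernel
theorem b57 : allR (guardB 5725 (blk fc sc rt.get INV isH)) 6 3648 = true := by decide +kernel
theorem b58 : allR (guardB 5725 (blk fc sc rt.get INV isH)) 6 3712 = true := by decide +kernel
theorem b59 : allR (guardB 5725 (blk fc sc rt.get INV isH)) 6 3776 = true := by decide +kernel
theorem b60 : allR (guardB 5725 (blk fc sc rt.get INV isH)) 6 3840 = true := by decide +kernel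
theorem b61 : allR (guardB 5725 (blk fc sc rt.get INV isH)) 6 3904 = true := by decide +kernel
theorem b62 : allR (guardB 5725 (blk fc sc rt.get INV isH)) 6 3968 = true := by decide +kernel
theorem b63 : allR (guardB 5725 (blk fc sc rt.get INV isH)) 6 4032 = true := by decide +kernel

end Cfsg.Agent.Lib.Helper11.ONa
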