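import Cfsg.Agent.Lib.Helper11.ONa.Top

set_option autoImplicit false
set_option maxRecDepth 100000

namespace Cfsg.Agent.Lib.Helper11.ONa

set_option maxHeartbeats 0
theorem b72 : allR (guardB 5725 (blk fc sc rt.get INV isH)) 6 4608 = true := by decide +kernel
theorem b73 : allR (guardB 5725 (blk fc sc rt.get INV isH)) 6 4672 = true := by decide +kernel
theorem b74 : allR (guardB 5725 (blk fc sc rt.get INV isH)) 6 4736 = true := by decide +kernel
theorem b75 : allR (guardB 5725 (blk fc sc rt.get INV isH)) 6 4800 = true := by decide +kernel
theorem b76 : allR (guardB 5725 (blk fc sc rt.get INV isH)) 6 4864 = true := by decide +kernel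
theorem b77 : allR (guardB 5725 (blk fc sc rt.get INV isH)) 6 4928 = true := by decide +kernel
theorem b78 : allR (guardB 5725 (blk fc sc rt.get INV isH)) 6 4992 = true := by decide +kernel
theorem b79 : allR (guardB 5725 (blk fc sc rt.get INV isH)) 6 5056 = true := by decide +kernel

end Cfsg.Agent.Lib.Helper11.ONa
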